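import Cfsg.Agent.H777.Co3.Rel
import Cfsg.Agent.H83.Co.RealDef
import Cfsg.Agent.H49.CoSyl

/-!
# `real_co1`, `sylow_co1` (helper777, with helper49)
-/

set_option autoImplicit false
set_option linter.style.longLine false
set_option maxRecDepth 20000

namespace Cfsg.Agent.H777.Co3

open Subgroup Cfsg.Agent.H776.Co Cfsg.Agent.H776.Co.P Cfsg

/-- one-parameter elements -/
def op (i : ℕ) (k : ZMod 3) : P :=
  match i with
  | 0 => ⟨0, 0, 0, k, 0, 0, 0, 0, 0⟩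
  | 1 => ⟨0, 0, 0, 0, k, 0, 0, 0, 0⟩
  | 2 => ⟨0, 0, 0, 0, 0, k, 0, 0, 0⟩
  | 3 => ⟨0, 0, 0, 0, 0, 0, k, 0, 0⟩
  | 4 => ⟨0, 0, 0, 0, 0, 0, 0, k, 0⟩
  | 5 => ⟨0, 0, 0, 0, 0, 0, 0, 0, k⟩
  | 6 => ⟨0, 0, k, 0, 0, 0, 0, 0, 0⟩
  | 7 => ⟨0, k, 0, 0, 0, 0, 0, 0, 0⟩
  | 8 => ⟨k, 0, 0, 0, 0, 0, 0, 0, 0⟩
  | _ => 1

/-- coordinates -/
def co (i : ℕ) (p : P) : ZMod 3 :=
  match i with
  | 0 => p.m11
  | 1 => p.m12
  | 2 => p.m22
  | 3 => p.m13
  | 4 => p.m23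
  | 5 => p.m33
  | 6 => p.c
  | 7 => p.b
  | 8 => p.a
  | _ => 0

theorem op_eq_pow (i : ℕ) (k : ZMod 3) : op i k = gs i ^ k.val := by
  have h : ∀ i < 9, ∀ k : ZMod 3, op i k = gs i ^ k.val := by decide +kernel
  by_cases hi : i < 9
  · exact h i hi k
  · obtain ⟨j, rfl⟩ := Nat.exists_eq_add_of_le (not_lt.1 hi)
    have h1 : gs (9 + j) = 1 := by
      unfold gs
      simp [List.getD_eq_getElem?_getD]
    rw [h1, one_pow]
    rw [add_comm]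
    rfl

theorem prod_op (p : P) : p = op 0 (co 0 p) * (op 1 (co 1 p) * (op 2 (co 2 p) * (op 3 (co 3 p) * (op 4 (co 4 p) *
    (op 5 (co 5 p) * (op 6 (co 6 p) * (op 7 (co 7 p) * op 8 (co 8 p)))))))) := by
  ext <;> simp [op, co]

theorem mem_cl {L : List ℕ} {p : P} (h : ∀ i < 9, i ∉ L → co i p = 0) : p ∈ closure (gs '' {i | i ∈ L}) := by
  have h1 : ∀ i < 9, op i (co i p) ∈ closure (gs '' {i | i ∈ L}) := by
    intro i hi
    rw [op_eq_pow]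
    by_cases hL : i ∈ L
    · exact pow_mem (Subgroup.subset_closure (Set.mem_image_of_mem gs hL)) _
    · rw [h i hi hL]
      exact one_mem _
  rw [prod_op p]
  exact mul_mem (h1 0 (by norm_num)) (mul_mem (h1 1 (by norm_num)) (mul_mem (h1 2 (by norm_num)) (mul_mem (h1 3 (by norm_num))
    (mul_mem (h1 4 (by norm_num)) (mul_mem (h1 5 (by norm_num)) (mul_mem (h1 6 (by norm_num)) (mul_mem (h1 7 (by norm_num))
      (h1 8 (by norm_num)))))))))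

theorem rel_of_chk {g : List ℕ} {h : P → P} {L : List ℕ} {R : Subgroup P} (hc : chk g h L = true) (hL : ∀ i ∈ L, gs i ∈ R)
    (hR : ∀ p ∈ R, ∀ i < 9, i ∉ L → co i p = 0) (hm : ∀ x ∈ R, ∀ y ∈ R, h (x * y) = h x * h y) :
    ∃ g : Co0, ∀ x ∈ R, phi (h x) = g * phi x * g⁻¹ := by
  refine ⟨ev g, transfer phi (ev g) h R (gs '' {i | i ∈ L}) ?_ ?_ (fun p hp => mem_cl (hR p hp)) hm⟩
  · rintro _ ⟨i, hi, rfl⟩
    exact hL i hi
  · rintro _ ⟨i, hi, rfl⟩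
    unfold chk at hc
    rw [List.all_eq_true] at hc
    have h1 := ev_eq (hc i hi)
    rw [ev_append, ev_append] at h1
    rw [phi_eq, phi_eq]
    exact h1

theorem all_mem : ∀ i < 9, i ∉ [0, 1, 2, 3, 4, 5, 6, 7, 8] → False := by decide

theorem rel_t1 : ∃ g : Co0, ∀ x, phi (tor (-1) 1 1 x) = g * phi x * g⁻¹ := by
  obtain ⟨g, hg⟩ := rel_of_chk (R := ⊤) k_t1 (fun _ _ => mem_top _) (fun p _ i hi hn => absurd (all_mem i hi hn) id)
    (fun x _ y _ => tor_mul (by ring) (by ring) x y)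
  exact ⟨g, fun x => hg x (mem_top x)⟩

theorem rel_t2 : ∃ g : Co0, ∀ x, phi (tor 1 (-1) 1 x) = g * phi x * g⁻¹ := by
  obtain ⟨g, hg⟩ := rel_of_chk (R := ⊤) k_t2 (fun _ _ => mem_top _) (fun p _ i hi hn => absurd (all_mem i hi hn) id)
    (fun x _ y _ => tor_mul (by ring) (by ring) x y)
  exact ⟨g, fun x => hg x (mem_top x)⟩

theorem rel_t3 : ∃ g : Co0, ∀ x, phi (tor 1 1 (-1) x) = g * phi x * g⁻¹ := by
  obtain ⟨g, hg⟩ := rel_of_chk (R := ⊤) k_t3 (fun _ _ => mem_top _) (fun p _ i hi hn => absurd (all_mem i hi hn) id)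
    (fun x _ y _ => tor_mul (by ring) (by ring) x y)
  exact ⟨g, fun x => hg x (mem_top x)⟩

theorem rel_w1 : ∃ g : Co0, ∀ x ∈ R1, phi (w1 x) = g * phi x * g⁻¹ := by
  have h1 : ∀ i ∈ [0, 1, 2, 3, 4, 5, 6, 7], (gs i).a = 0 := by decide
  refine rel_of_chk k_w1 h1 (fun p hp i hi hn => ?_) (fun x hx y hy => w1_mul hx hy)
  interval_cases i <;> first | exact absurd (by decide) hn | exact hp

theorem rel_w2 : ∃ g : Co0, ∀ x ∈ R2, phi (w2 2 x) = g * phi x * g⁻¹ := by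
  have h1 : ∀ i ∈ [0, 1, 2, 3, 4, 5, 6, 8], (gs i).b = 0 := by decide
  refine rel_of_chk k_w2 h1 (fun p hp i hi hn => ?_) (fun x hx y hy => w2_mul 2 hx hy)
  interval_cases i <;> first | exact absurd (by decide) hn | exact hp

theorem rel_w3 : ∃ g : Co0, ∀ x ∈ R3, phi (w3 x) = g * phi x * g⁻¹ := by
  have h1 : ∀ i ∈ [0, 1, 2, 3, 4, 6, 7, 8], (gs i).m33 = 0 := by decide
  refine rel_of_chk k_w3 h1 (fun p hp i hi hn => ?_) (fun x hx y hy => w3_mul hx hy)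
  interval_cases i <;> first | exact absurd (by decide) hn | exact hp

/-- D3 -/
theorem real_co1 : ∃ (G0 : Type) (_ : Group G0) (_ : Finite G0), Cfsg.Agent.H83.Co.RealData 2 True G0 := by
  refine ⟨Co0, inferInstance, Cfsg.Agent.H49.CoSyl.finite_co0, ⟨phi, phi_injective,
    Cfsg.Agent.H49.CoSyl.syl_co0 phi phi_injective, rel_t1, rel_t2, rel_w1, rel_w2, rel_w3, fun _ => rel_t3,
    fun h => absurd trivial h⟩⟩

/-- D4 -/
theorem sylow_co1 (T : Sylow 3 Cfsg.Spor.Co1) : Nonempty (P ≃* ↥(T : Subgroup Cfsg.Spor.Co1)) :=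
  Cfsg.Agent.H49.CoSyl.sylow_co1 phi phi_injective T

end Cfsg.Agent.H777.Co3
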